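import Mathlib.GroupTheory.Index
import Mathlib.Algebra.Order.BigOperators.Group.Finset
import Mathlib.Data.Fintype.Card
import Mathlib.Algebra.BigOperators.Ring.Finset
import Mathlib.SetTheory.Cardinal.Finite
import Mathlib.Tactic.Group

/-!
A bound for the order of a centraliser: if a subgroup `M` permutes a finite set `O` of conjugates
of `z` transitively, the number of pairs `(g, e)` with `e` and its conjugate by `g` in `O` is at
least `|O|² |C(z)|`, and can be bounded double coset by double coset.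
-/

set_option autoImplicit false

namespace CfsgLib.J4Cent6

variable {G K : Type*} [Group G] [Group K]

theorem card_dcoset_le [Fintype G] [DecidableEq G] [Fintype K] {M : Subgroup G}
    [DecidablePred (· ∈ M)] (φ : K →* G) (g : G) {k r : ℕ} (hk0 : 0 < k)
    (hk : k ≤ Nat.card {h : K // g * φ h * g⁻¹ ∈ M}) (hr : Nat.card K ≤ r * k) :
    ((Finset.univ : Finset (M × K)).image fun p => (p.1 : G) * g * φ p.2).card
      ≤ Nat.card M * r := by
  classical
  set U := (Finset.univ : Finset (M × K)).image fun p => (p.1 : G) * g * φ p.2 with hU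
  have hfib : ∀ w ∈ U, k ≤ ((Finset.univ : Finset (M × K)).filter fun p =>
      (p.1 : G) * g * φ p.2 = w).card := by
    intro w hw
    obtain ⟨⟨m, h⟩, -, rfl⟩ := Finset.mem_image.1 hw
    refine hk.trans ?_
    rw [Nat.card_eq_fintype_card, ← Finset.card_univ]
    refine Finset.card_le_card_of_injOn
      (fun u => (m * ⟨(g * φ u.1 * g⁻¹)⁻¹, M.inv_mem u.2⟩, u.1 * h)) (fun u _ => ?_) ?_
    · simp only [Finset.coe_filter, Finset.mem_univ, true_and, Set.mem_ofPred_eq,
        Subgroup.coe_mul, map_mul]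
      group
    · intro u _ v _ huv
      exact Subtype.ext (mul_right_cancel (Prod.ext_iff.1 huv).2)
  have h1 : U.card * k ≤ Nat.card M * Nat.card K := by
    rw [← Nat.card_prod, Nat.card_eq_fintype_card, ← Finset.card_univ,
      Finset.card_eq_sum_card_image (fun p : M × K => (p.1 : G) * g * φ p.2) Finset.univ, ← hU,
      ← smul_eq_mul, ← Finset.sum_const]
    exact Finset.sum_le_sum hfib
  refine Nat.le_of_mul_le_mul_right (h1.trans ?_) hk0
  rw [mul_assoc]
  exact Nat.mul_le_mul_left _ hr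

theorem finite_of_cover (M : Subgroup G) [Finite M] [Finite K] (φ : K →* G) {ι : Type*}
    (live : Finset ι) (g : ι → G) (hcov : ∀ w, ∃ a ∈ live, ∃ h, w * (g a * φ h)⁻¹ ∈ M) :
    Finite G := by
  refine Finite.of_surjective (fun p : live × M × K => (p.2.1 : G) * g p.1.1 * φ p.2.2) fun w => ?_
  obtain ⟨a, ha, h, hm⟩ := hcov w
  exact ⟨(⟨a, ha⟩, ⟨_, hm⟩, h), by simp only; group⟩

theorem card_centralizer_le (M : Subgroup G) [Finite M] [Finite K] (φ : K →* G) (z : G)
    (O : Finset G) (hφ : φ.range ≤ M) (hMO : ∀ m ∈ M, ∀ e ∈ O, m * e * m⁻¹ ∈ O)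
    (htr : ∀ e ∈ O, ∃ h, φ h * z * (φ h)⁻¹ = e)
    {ι : Type*} (live : Finset ι) (g : ι → G)
    (hcov : ∀ w, ∃ a ∈ live, ∃ h, w * (g a * φ h)⁻¹ ∈ M) (c r : ι → ℕ)
    (hc : ∀ a ∈ live, ∀ S ⊆ O, (∀ e ∈ S, g a * e * (g a)⁻¹ ∈ O) → S.card ≤ c a)
    (hk : ∀ a ∈ live, c a = 0 ∨
      ∃ k, 0 < k ∧ k ≤ Nat.card {h : K // g a * φ h * (g a)⁻¹ ∈ M} ∧ Nat.card K ≤ r a * k) :
    O.card ^ 2 * Nat.card (Subgroup.centralizer ({z} : Set G)) ≤
      Nat.card M * ∑ a ∈ live, c a * r a := by
  classical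
  have := finite_of_cover M φ live g hcov
  letI : Fintype G := Fintype.ofFinite G
  letI : Fintype K := Fintype.ofFinite K
  let A : G → Finset G := fun e => Finset.univ.filter fun w => w * e * w⁻¹ ∈ O
  let F : G → Finset G := fun w => O.filter fun e => w * e * w⁻¹ ∈ O
  have hMmem : ∀ h, φ h ∈ M := fun h => hφ ⟨h, rfl⟩
  -- every fibre is large
  have hA : ∀ e ∈ O, O.card * Nat.card (Subgroup.centralizer ({z} : Set G)) ≤ (A e).card := by
    intro e he
    obtain ⟨h₀, rfl⟩ := htr e he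
    choose f hf using htr
    rw [Nat.card_eq_fintype_card, ← Fintype.card_coe O, ← Fintype.card_prod, ← Finset.card_univ]
    refine Finset.card_le_card_of_injOn
      (fun p => φ (f p.1.1 p.1.2) * (p.2 : G) * (φ h₀)⁻¹) (fun p _ => ?_) ?_
    · simp only [A, Finset.coe_filter, Finset.mem_univ, true_and, Set.mem_ofPred_eq]
      have hp : (p.2 : G) * z * (p.2 : G)⁻¹ = z := by
        have := Subgroup.mem_centralizer_iff.1 p.2.2 z (Set.mem_singleton z)
        rw [← this, mul_inv_cancel_right]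
      have key : φ (f p.1.1 p.1.2) * (p.2 : G) * (φ h₀)⁻¹ * (φ h₀ * z * (φ h₀)⁻¹) *
          (φ (f p.1.1 p.1.2) * (p.2 : G) * (φ h₀)⁻¹)⁻¹ =
          φ (f p.1.1 p.1.2) * ((p.2 : G) * z * (p.2 : G)⁻¹) * (φ (f p.1.1 p.1.2))⁻¹ := by group
      rw [key, hp, hf]
      exact p.1.2
    · intro p _ q _ hpq
      simp only at hpq
      have hp := Subgroup.mem_centralizer_iff.1 p.2.2 z (Set.mem_singleton z)
      have hq := Subgroup.mem_centralizer_iff.1 q.2.2 z (Set.mem_singleton z)
      have h1 := mul_right_cancel hpq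
      have hp' : (p.2 : G) * z * (p.2 : G)⁻¹ = z := by rw [← hp, mul_inv_cancel_right]
      have hq' : (q.2 : G) * z * (q.2 : G)⁻¹ = z := by rw [← hq, mul_inv_cancel_right]
      have ep : (φ (f p.1.1 p.1.2) * p.2) * z * (φ (f p.1.1 p.1.2) * p.2)⁻¹ = (p.1 : G) :=
        calc _ = φ (f p.1.1 p.1.2) * ((p.2 : G) * z * (p.2 : G)⁻¹) * (φ (f p.1.1 p.1.2))⁻¹ := by
              group
          _ = _ := by rw [hp', hf]
      have eq' : (φ (f q.1.1 q.1.2) * q.2) * z * (φ (f q.1.1 q.1.2) * q.2)⁻¹ = (q.1 : G) :=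
        calc _ = φ (f q.1.1 q.1.2) * ((q.2 : G) * z * (q.2 : G)⁻¹) * (φ (f q.1.1 q.1.2))⁻¹ := by
              group
          _ = _ := by rw [hq', hf]
      rw [h1] at ep
      have e1 : p.1 = q.1 := Subtype.ext (ep.symm.trans eq')
      refine Prod.ext e1 (Subtype.ext ?_)
      rw [e1] at h1
      exact mul_left_cancel h1
  have hdbl : ∑ e ∈ O, (A e).card = ∑ w : G, (F w).card := by
    simp only [A, F, Finset.card_filter]
    exact Finset.sum_comm
  have hlow : O.card ^ 2 * Nat.card (Subgroup.centralizer ({z} : Set G)) ≤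
      ∑ e ∈ O, (A e).card := by
    rw [sq, mul_assoc, ← smul_eq_mul O.card, ← Finset.sum_const]
    exact Finset.sum_le_sum hA
  refine hlow.trans (hdbl.le.trans ?_)
  let U : ι → Finset G := fun a =>
    (Finset.univ : Finset (M × K)).image fun p => (p.1 : G) * g a * φ p.2
  have hcover : ∀ w, ∃ a ∈ live, w ∈ U a := by
    intro w
    obtain ⟨a, ha, h, hm⟩ := hcov w
    exact ⟨a, ha, Finset.mem_image.2 ⟨(⟨_, hm⟩, h), Finset.mem_univ _, by simp only; group⟩⟩
  have hF : ∀ a ∈ live, ∀ w ∈ U a, (F w).card ≤ c a := by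
    intro a ha w hw
    obtain ⟨⟨m, h⟩, -, rfl⟩ := Finset.mem_image.1 hw
    rw [← Finset.card_image_of_injective (F _)
      (show Function.Injective fun e => φ h * e * (φ h)⁻¹ from fun x y hxy =>
        mul_left_cancel (mul_right_cancel hxy))]
    refine hc a ha _ ?_ ?_
    · intro e he
      obtain ⟨e', he', rfl⟩ := Finset.mem_image.1 he
      exact hMO _ (hMmem h) _ (Finset.mem_filter.1 he').1
    · intro e he
      obtain ⟨e', he', rfl⟩ := Finset.mem_image.1 he
      have h2 := hMO _ (M.inv_mem m.2) _ (Finset.mem_filter.1 he').2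
      simpa [mul_assoc] using h2
  calc ∑ w : G, (F w).card ≤ ∑ w : G, ∑ a ∈ live, if w ∈ U a then c a else 0 := by
        refine Finset.sum_le_sum fun w _ => ?_
        obtain ⟨a, ha, hw⟩ := hcover w
        refine (hF a ha w hw).trans ?_
        refine le_trans (le_of_eq (if_pos hw).symm)
          (Finset.single_le_sum (f := fun b => if w ∈ U b then c b else 0)
            (fun b _ => Nat.zero_le _) ha)
    _ = ∑ a ∈ live, (U a).card * c a := by
        rw [Finset.sum_comm]
        simp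
    _ ≤ ∑ a ∈ live, Nat.card M * (c a * r a) := by
        refine Finset.sum_le_sum fun a ha => ?_
        rcases hk a ha with h0 | ⟨k, hk0, hk1, hk2⟩
        · simp [h0]
        · rw [← mul_assoc, mul_comm (Nat.card M) (c a), mul_assoc, mul_comm (U a).card]
          exact Nat.mul_le_mul_left _ (card_dcoset_le φ (g a) hk0 hk1 hk2)
    _ = _ := (Finset.mul_sum _ _ _).symm

end CfsgLib.J4Cent6
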