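import Cfsg.Agent.J4Cent6.NodeCheck

/-! The checks of some nodes. -/

set_option autoImplicit false
set_option maxRecDepth 100000
set_option Elab.async false

namespace CfsgLib.J4Cent6

theorem node7_ok : nodeOK (Tab.gW.getD 7 []) (Tab.gT.getD 7 []) (Tab.cnt.getD 7 0) = true := by
  decide +kernel

theorem node8_ok : nodeOK (Tab.gW.getD 8 []) (Tab.gT.getD 8 []) (Tab.cnt.getD 8 0) = true := by
  decide +kernel

theorem node9_ok : nodeOK (Tab.gW.getD 9 []) (Tab.gT.getD 9 []) (Tab.cnt.getD 9 0) = true := by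
  decide +kernel

theorem node10_ok : nodeOK (Tab.gW.getD 10 []) (Tab.gT.getD 10 []) (Tab.cnt.getD 10 0) = true := by
  decide +kernel

theorem node11_ok : nodeOK (Tab.gW.getD 11 []) (Tab.gT.getD 11 []) (Tab.cnt.getD 11 0) = true := by
  decide +kernel

theorem node12_ok : nodeOK (Tab.gW.getD 12 []) (Tab.gT.getD 12 []) (Tab.cnt.getD 12 0) = true := by
  decide +kernel

end CfsgLib.J4Cent6
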