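import Cfsg.Agent.J4Cent6.Node0
import Cfsg.Agent.J4Cent6.Node1
import Cfsg.Agent.J4Cent6.Node2
import Cfsg.Agent.J4Cent6.Node3
import Cfsg.Agent.J4Cent6.Count
import Cfsg.Agent.Mathieu.M24

/-!
The centraliser of the involution in the presented fourth Janko group has order at most
`21799895040`, given the faithfulness of the representation, the order of `2 ^ 11 : M24`, the
twenty double cosets and four stabiliser orders.
-/

set_option autoImplicit false
set_option maxRecDepth 100000

namespace CfsgLib.J4Cent6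

open Cfsg Cfsg.Spor CfsgLib.CosetEnum CfsgLib.J4Rep112 CfsgLib.J4M24

theorem node_ok : ∀ a < 20,
    nodeOK (Tab.gW.getD a []) (Tab.gT.getD a []) (Tab.cnt.getD a 0) = true := by
  intro a ha
  interval_cases a
  exacts [node0_ok, node1_ok, node2_ok, node3_ok, node4_ok, node5_ok, node6_ok, node7_ok, node8_ok, node9_ok, node10_ok, node11_ok, node12_ok, node13_ok, node14_ok, node15_ok, node16_ok, node17_ok, node18_ok, node19_ok]

/-- bounds for the numbers of cosets in five double cosets -/
def rBound (a : ℕ) : ℕ :=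
  if a = 0 then 1 else if a = 1 then 3795 else if a = 12 then 26565 else if a = 13 then 11385
  else if a = 19 then 1771 else 0

theorem incl_range_eq : incl.range = Hsub := by
  rw [incl_range, MonoidHom.map_closure, Set.image_pair]
  rfl

theorem Hsub_le : Hsub ≤ Msub := Subgroup.closure_mono (by
  rintro u (rfl | rfl)
  · exact Or.inl rfl
  · exact Or.inr (Or.inl rfl))

theorem gA_zero : gA 0 = 1 := rfl

/-- the subgroup in the form it is stated in -/
theorem Msub_eq : Msub = (Subgroup.closure ({J4.x, J4.y, (J4.y * ((J4.y * J4.x) ^ 4 *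
      J4.y⁻¹ * J4.x)⁻¹ * J4.t * ((J4.y * J4.x) ^ 4 * J4.y⁻¹ *
      J4.x)) ^ 3} : Set (FreeGroup J4.Gen))).map
    (PresentedGroup.mk (coxRelators J4.edges ∪ {r | r ∈ J4.extra})) := by
  rw [MonoidHom.map_closure, Msub]
  congr 1
  rw [Set.image_insert_eq, Set.image_pair]
  rfl

/-- the bound -/
theorem card_centralizer_le_of (hinj : Function.Injective rep)
    (hM : Finite Msub ∧ Nat.card Msub ≤ 2 ^ 11 * 244823040)
    (hcov : ∀ w : Spor.J4, ∃ a < 20, ∃ h : P, w * (gA a * incl h)⁻¹ ∈ Msub)
    (hstab : ∀ e ∈ [(1, 64512), (12, 9216), (13, 21504), (19, 138240)],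
      e.2 ≤ Nat.card {h : P // gA e.1 * incl h * (gA e.1)⁻¹ ∈ Msub}) :
    Nat.card (Subgroup.centralizer ({J4Cent82.zCent} : Set Spor.J4)) ≤ 21799895040 := by
  obtain ⟨hMf, hMc⟩ := hM
  have := hMf
  have : Finite P := Finite.of_equiv _ equivM24.toEquiv.symm
  have hP : Nat.card P = 244823040 :=
    (Nat.card_congr equivM24.toEquiv).trans Mathieu.card_M24
  have hk : ∀ a ∈ Finset.range 20, Tab.cnt.getD a 0 = 0 ∨
      ∃ k, 0 < k ∧ k ≤ Nat.card {h : P // gA a * incl h * (gA a)⁻¹ ∈ Msub} ∧
        Nat.card P ≤ rBound a * k := by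
    intro a ha
    rw [Finset.mem_range] at ha
    rw [hP]
    interval_cases a
    · refine Or.inr ⟨244823040, by norm_num, le_of_eq ?_, by norm_num [rBound]⟩
      rw [← hP]
      refine (Nat.card_congr (Equiv.subtypeUnivEquiv fun h => ?_)).symm
      rw [gA_zero, one_mul, inv_one, mul_one]
      exact Hsub_le (incl_range_eq ▸ ⟨h, rfl⟩)
    · exact Or.inr ⟨64512, by norm_num, hstab (1, 64512) (by simp), by norm_num [rBound]⟩
    iterate 10 exact Or.inl rfl
    · exact Or.inr ⟨9216, by norm_num, hstab (12, 9216) (by simp), by norm_num [rBound]⟩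
    · exact Or.inr ⟨21504, by norm_num, hstab (13, 21504) (by simp), by norm_num [rBound]⟩
    iterate 5 exact Or.inl rfl
    · exact Or.inr ⟨138240, by norm_num, hstab (19, 138240) (by simp), by norm_num [rBound]⟩
  have h := card_centralizer_le Msub incl J4Cent82.zCent orb (incl_range_eq ▸ Hsub_le)
    (orb_invariant hinj) (fun u hu => by
      obtain ⟨h, hh, he⟩ := orb_conj hinj hu
      rw [← incl_range_eq] at hh
      obtain ⟨p, rfl⟩ := hh
      exact ⟨p, he⟩)
    (Finset.range 20) gA (fun w => by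
      obtain ⟨a, ha, h⟩ := hcov w
      exact ⟨a, Finset.mem_range.2 ha, h⟩)
    (fun a => Tab.cnt.getD a 0) rBound
    (fun a ha S hS hmap => count_le (node_ok a (Finset.mem_range.1 ha)) S hS hmap) hk
  have hsum : ∑ a ∈ Finset.range 20, Tab.cnt.getD a 0 * rBound a = 136367 := by decide +kernel
  rw [card_orb, hsum] at h
  have h2 := h.trans (Nat.mul_le_mul_right 136367 hMc)
  refine Nat.le_of_mul_le_mul_left (h2.trans_eq ?_) (show 0 < 1771 ^ 2 by norm_num)
  norm_num

end CfsgLib.J4Cent6
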