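import Cfsg.Agent.J4Cent6.Bound
import Cfsg.Agent.J4Index22.Index
import Cfsg.Agent.J4Main61.Main

/-!
The centraliser of the involution in the presented fourth Janko group has order at most
`21799895040`.
-/

set_option autoImplicit false
set_option maxRecDepth 100000

namespace CfsgLib.J4Cent6

open Cfsg Cfsg.Spor CfsgLib.CosetEnum CfsgLib.J4M24 DCert22
open J4Index22 (model encP bigM liveJ opsJ encP_px encP_py encP_pyi encP_one encP_mul cx cy cyi)

attribute [local irreducible] J4Index22.encP J4M24.phi J4Index22.one J4Index22.pk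

/-- the code of a letter -/
noncomputable def codeL (c : ℕ) : ℕ := [cx, cx, cy, cyi].getD c J4Index22.one

/-- the code of a word -/
noncomputable def codeW : List ℕ → ℕ
  | [] => J4Index22.one
  | c :: w => J4Index22.mul (codeL c) (codeW w)

theorem encP_codeW : ∀ w : List ℕ, (w.all fun c => c.blt 4) = true →
    encP (gword J4M24.gl w) = codeW w
  | [], _ => encP_one
  | c :: w, h => by
    simp only [List.all_cons, Bool.and_eq_true, Nat.blt, Nat.ble_eq] at h
    rw [gword_cons, encP_mul, encP_codeW w h.2, codeW]
    congr 1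
    rcases (by omega : c = 0 ∨ c = 1 ∨ c = 2 ∨ c = 3) with rfl | rfl | rfl | rfl
    · exact encP_px
    · show encP (J4M24.gl (0 ^^^ 1)) = _
      rw [J4M24.gl_iv, show J4M24.gl 0 = px from rfl, J4Index22.px_inv]
      exact encP_px
    · exact encP_py
    · show encP (J4M24.gl (2 ^^^ 1)) = _
      rw [J4M24.gl_iv]
      exact encP_pyi

theorem incl_gl {c : ℕ} (hc : c < 4) : incl (J4M24.gl c) = gl c := by
  rcases (by omega : c = 0 ∨ c = 1 ∨ c = 2 ∨ c = 3) with rfl | rfl | rfl | rfl
  · exact J4Local.incl_px
  · show incl (J4M24.gl (0 ^^^ 1)) = gl (0 ^^^ 1)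
    rw [J4M24.gl_iv, gl_iv, map_inv]
    exact congrArg (·⁻¹) J4Local.incl_px
  · exact J4Local.incl_py
  · show incl (J4M24.gl (2 ^^^ 1)) = gl (2 ^^^ 1)
    rw [J4M24.gl_iv, gl_iv, map_inv]
    exact congrArg (·⁻¹) J4Local.incl_py

theorem incl_word (w : List ℕ) (h : (w.all fun c => c.blt 4) = true) :
    incl (gword J4M24.gl w) = gword gl w := by
  simp only [List.all_eq_true, Nat.blt, Nat.ble_eq] at h
  rw [gword_map]
  exact gword_congr _ _ fun c hc => incl_gl (h c hc)

/-- one node is the printed one -/
noncomputable def nodeEq (k : ℕ) : Bool :=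
  match J4Index22.Tab.cert.nodes[k]?, Tab.nodes[k]? with
  | some (a, x), some (a', w) => Nat.beq a a' && Nat.ble a k && (w.all fun c => c.blt 4) &&
      Nat.beq (codeW w) x && (Tab.gW.getD (k + 1) [] == Tab.gW.getD a [] ++ w ++ [4])
  | _, _ => false

theorem nodes_eq : (List.range 19).all nodeEq = true := by decide +kernel

theorem grep_eq : ∀ a < 20, grep model J4Index22.Tab.cert a = gA a := by
  intro a
  induction a using Nat.strong_induction_on with
  | _ a ih =>
    intro ha
    cases a with
    | zero => rfl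
    | succ k =>
      have h := List.all_eq_true.1 nodes_eq k (List.mem_range.2 (by omega))
      simp only [nodeEq] at h
      split at h
      swap; · simp at h
      next p q p' w hk _ =>
      simp only [Bool.and_eq_true, beq_iff_eq] at h
      obtain ⟨⟨⟨⟨hp, hle⟩, hw⟩, hx⟩, hg⟩ := h
      have hpk : p ≤ k := Nat.le_of_ble_eq_true hle
      show gaux model J4Index22.Tab.cert (k + 1 + 1) (k + 1) = _
      simp only [gaux, hk]
      rw [gaux_eq model J4Index22.Tab.cert
        (fun j a x hj => J4Index22.certOK.1 j a x hj) (k + 1) p (by omega),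
        ih p (by omega) (by omega), gA, gA, hg, gword_app, gword_app,
        ← Nat.eq_of_beq_eq_true hx, ← encP_codeW w hw,
        show model.val (encP (gword J4M24.gl w)) = incl (gword J4M24.gl w) from model.val_enc _,
        incl_word w hw]
      congr 1

theorem Msub_bigM : Msub = bigM := Msub_eq

/-- the twenty double cosets cover the group -/
theorem cover_all : ∀ w : Spor.J4, ∃ a < 20, ∃ h : P, w * (gA a * incl h)⁻¹ ∈ Msub := by
  intro w
  obtain ⟨b, hb, g, ⟨h, hg⟩, hr⟩ := J4Index22.hall w
  have hb' : b < 20 := by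
    simp only [liveJ, List.mem_cons, List.not_mem_nil, or_false] at hb
    omega
  refine ⟨b, hb', h, ?_⟩
  rw [Msub_bigM]
  change w * (grep model J4Index22.Tab.cert b * model.val g)⁻¹ ∈ bigM at hr
  rwa [← hg, model.val_enc, grep_eq b hb'] at hr

/-- four stabiliser bounds -/
theorem stab_low (a k : ℕ) (ha : a < 20)
    (hk : k ≤ Nat.card (stab model bigM J4Index22.Tab.cert a)) :
    k ≤ Nat.card {h : P // gA a * incl h * (gA a)⁻¹ ∈ Msub} := by
  have := J4Index22.finite_P
  refine hk.trans (le_of_eq (Nat.card_congr (Equiv.subtypeEquivRight fun h => ?_)))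
  rw [Msub_bigM, ← grep_eq a ha]
  rfl

/-- the bound -/
theorem card_centralizer_le_main :
    Nat.card (Subgroup.centralizer ({J4Cent82.zCent} : Set Spor.J4)) ≤ 21799895040 := by
  refine card_centralizer_le_of J4Main61.faithful ?_ cover_all ?_
  · obtain ⟨h1, h2⟩ := J4Index22.card_M_le
    rw [show Msub = J4Index22.subM from Msub_eq]
    exact ⟨h1, h2⟩
  · intro e he
    simp only [List.mem_cons, List.not_mem_nil, or_false] at he
    rcases he with rfl | rfl | rfl | rfl
    · exact stab_low 1 _ (by norm_num) J4Index22.low1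
    · exact stab_low 12 _ (by norm_num) J4Index22.low12
    · exact stab_low 13 _ (by norm_num) J4Index22.low13
    · exact stab_low 19 _ (by norm_num) J4Index22.low19

end CfsgLib.J4Cent6
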