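import Cfsg.Agent.J4Cent6.NodeCheck

/-! The checks of some nodes. -/

set_option autoImplicit false
set_option maxRecDepth 100000
set_option Elab.async false

namespace CfsgLib.J4Cent6

theorem node0_ok : nodeOK (Tab.gW.getD 0 []) (Tab.gT.getD 0 []) (Tab.cnt.getD 0 0) = true := by
  decide +kernel

theorem node1_ok : nodeOK (Tab.gW.getD 1 []) (Tab.gT.getD 1 []) (Tab.cnt.getD 1 0) = true := by
  decide +kernel

theorem node2_ok : nodeOK (Tab.gW.getD 2 []) (Tab.gT.getD 2 []) (Tab.cnt.getD 2 0) = true := by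
  decide +kernel

theorem node3_ok : nodeOK (Tab.gW.getD 3 []) (Tab.gT.getD 3 []) (Tab.cnt.getD 3 0) = true := by
  decide +kernel

theorem node4_ok : nodeOK (Tab.gW.getD 4 []) (Tab.gT.getD 4 []) (Tab.cnt.getD 4 0) = true := by
  decide +kernel

theorem node5_ok : nodeOK (Tab.gW.getD 5 []) (Tab.gT.getD 5 []) (Tab.cnt.getD 5 0) = true := by
  decide +kernel

theorem node6_ok : nodeOK (Tab.gW.getD 6 []) (Tab.gT.getD 6 []) (Tab.cnt.getD 6 0) = true := by
  decide +kernel

end CfsgLib.J4Cent6
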