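import Cfsg.Agent.J4Cent6.Orbit
import Cfsg.Agent.J4Cent6.NodeData

/-!
The check of one node: how many elements of the orbit stay in the orbit.
-/

set_option autoImplicit false
set_option maxRecDepth 100000

namespace CfsgLib.J4Cent6

open Cfsg.Spor CfsgLib.CosetEnum CfsgLib.J4Rep112

/-- the test of one image -/
noncomputable def hit (T : List ℕ) (p : ℕ × ℕ) : Bool :=
  Nat.testBit Tab.oMask p.1 && (idx Tab.fpTree (vm T p.2)).isSome

/-- evaluate a number before using it -/
noncomputable def force {α : Type} (v : ℕ) (k : ℕ → α) : α :=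
  Nat.rec (k 0) (fun n _ => k (Nat.succ n)) v

theorem force_eq {α : Type} (v : ℕ) (k : ℕ → α) : force v k = k v := by cases v <;> rfl

/-- a list and its images, alternately -/
noncomputable def ilv (T : List ℕ) : List ℕ → List ℕ
  | [] => []
  | x :: l => force x fun a => force (vm T a) fun b => a :: b :: ilv T l

theorem ilv_eq (T : List ℕ) : ∀ l, ilv T l = l.flatMap fun x => [x, vm T x]
  | [] => rfl
  | x :: l => by rw [ilv, force_eq, force_eq, ilv_eq T l]; rfl

/-- all products applied to one bit mask, evaluated eagerly -/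
noncomputable def dblF : List (List ℕ) → ℕ → List ℕ
  | [], v => force v fun a => [a]
  | T :: Ts, v => ilv T (dblF Ts v)

theorem dblF_eq : ∀ (Ts : List (List ℕ)) (v : ℕ), dblF Ts v = dblL Ts v
  | [], v => by rw [dblF, force_eq, dblL]
  | T :: Ts, v => by rw [dblF, ilv_eq, dblF_eq Ts v, dblL]

/-- number of images found -/
noncomputable def hits (T : List ℕ) : ℕ → List ℕ → ℕ
  | _, [] => 0
  | i, w :: l => (bif hit T (i, w) then 1 else 0) + hits T (i + 1) l

/-- the check of a node -/
noncomputable def nodeOK (w T : List ℕ) (c : ℕ) : Bool :=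
  tabOK w T && lettersOK (winv w) &&
    (hits T 0 (dblF Tab.eT (act (winv w) 1))).ble c

theorem hits_eq (T : List ℕ) (f : ℕ → ℕ) : ∀ (n i : ℕ),
    hits T i ((List.range' i n).map f) =
      (List.range' i n).countP fun j => hit T (j, f j)
  | 0, i => rfl
  | n + 1, i => by
    rw [List.range'_succ, List.map_cons, hits, hits_eq T f n (i + 1), List.countP_cons, Nat.add_comm]
    cases hit T (i, f i) <;> simp

/-- the node -/
def gA (a : ℕ) : Cfsg.Spor.J4 := gword gl (Tab.gW.getD a [])

theorem count_le {w T : List ℕ} {c : ℕ} (h : nodeOK w T c = true) (S : Finset Cfsg.Spor.J4)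
    (hS : S ⊆ orb) (hmap : ∀ e ∈ S, gword gl w * e * (gword gl w)⁻¹ ∈ orb) : S.card ≤ c := by
  classical
  simp only [nodeOK, Bool.and_eq_true] at h
  obtain ⟨⟨hT, hw'⟩, hc⟩ := h
  rw [dblF_eq, dblL_eq, List.range_eq_range', hits_eq, ← List.range_eq_range'] at hc
  refine le_trans ?_ (Nat.le_of_ble_eq_true hc)
  rw [← List.toFinset_card_of_nodup (List.nodup_range.filter _) |>.trans
    List.countP_eq_length_filter.symm]
  refine (Finset.card_le_card (t := Finset.image el _) ?_).trans Finset.card_image_le
  intro e he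
  obtain ⟨n, hn, rfl⟩ := mem_orb.1 (hS he)
  obtain ⟨k, hk, hek⟩ := mem_orb.1 (hmap _ he)
  refine Finset.mem_image.2 ⟨n, List.mem_toFinset.2 (List.mem_filter.2 ⟨?_, ?_⟩), rfl⟩
  · have := (orb_induction (P := fun _ => True) trivial (fun _ _ _ _ => trivial) n hn).2
    rw [List.mem_range, show Tab.eT.length = 11 from rfl]
    exact this
  · simp only [hit, Bool.and_eq_true]
    refine ⟨(mem_orbL_iff n).1 hn, ?_⟩
    have hk' : (idx Tab.fpTree (elv Tab.eT k 1)).isSome = true := by
      have hfp := fpOK_spec orbL 0 fp_ok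
      have hm : idx Tab.fpTree (elv Tab.eT k 1) ∈ (List.range' 0 orbL.length).map some := by
        rw [← hfp]
        exact List.mem_map.2 ⟨k, hk, rfl⟩
      obtain ⟨j, -, hj⟩ := List.mem_map.1 hm
      rw [← hj]
      rfl
    have hkey : vm T (elv Tab.eT n (act (winv w) 1)) = elv Tab.eT k 1 := by
      have e := congrArg (fun u => ((rep u vOne : Vec) : ℕ)) hek
      simp only [map_mul, Equiv.Perm.mul_apply, isTab_of_tabOK hT _, rep_el, ← gword_winv,
        rep_gword hw'] at e
      exact e.symm
    rw [hkey]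
    exact hk'

end CfsgLib.J4Cent6
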