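import Cfsg.Agent.J4Cent6.Tab
import Cfsg.Agent.J4Cent6.OrbData

/-!
The tables of the basis are commuting involutions.
-/

set_option autoImplicit false
set_option maxRecDepth 100000
set_option Elab.async false

namespace CfsgLib.J4Cent6

open CfsgLib.J4Rep112

/-- a table is an involution commuting with the others -/
noncomputable def abRow (S : List ℕ) (Ts : List (List ℕ)) : Bool :=
  ((List.range 112).all fun i => Nat.beq (vm S (vm S (2 ^ i))) (2 ^ i)) &&
    Ts.all fun T => (List.range 112).all fun i =>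
      Nat.beq (vm S (vm T (2 ^ i))) (vm T (vm S (2 ^ i)))

theorem ab0_ok : abRow (Tab.eT.getD 0 []) (Tab.eT.drop 1) = true := by decide +kernel

theorem ab1_ok : abRow (Tab.eT.getD 1 []) (Tab.eT.drop 2) = true := by decide +kernel

theorem ab2_ok : abRow (Tab.eT.getD 2 []) (Tab.eT.drop 3) = true := by decide +kernel

theorem ab3_ok : abRow (Tab.eT.getD 3 []) (Tab.eT.drop 4) = true := by decide +kernel

theorem ab4_ok : abRow (Tab.eT.getD 4 []) (Tab.eT.drop 5) = true := by decide +kernel

theorem ab5_ok : abRow (Tab.eT.getD 5 []) (Tab.eT.drop 6) = true := by decide +kernel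

theorem ab6_ok : abRow (Tab.eT.getD 6 []) (Tab.eT.drop 7) = true := by decide +kernel

theorem ab7_ok : abRow (Tab.eT.getD 7 []) (Tab.eT.drop 8) = true := by decide +kernel

theorem ab8_ok : abRow (Tab.eT.getD 8 []) (Tab.eT.drop 9) = true := by decide +kernel

theorem ab9_ok : abRow (Tab.eT.getD 9 []) (Tab.eT.drop 10) = true := by decide +kernel

theorem ab10_ok : abRow (Tab.eT.getD 10 []) (Tab.eT.drop 11) = true := by decide +kernel

theorem ab_ok : ∀ i < 11, abRow (Tab.eT.getD i []) (Tab.eT.drop (i + 1)) = true := by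
  intro i hi
  interval_cases i
  exacts [ab0_ok, ab1_ok, ab2_ok, ab3_ok, ab4_ok, ab5_ok, ab6_ok, ab7_ok, ab8_ok, ab9_ok, ab10_ok]

end CfsgLib.J4Cent6
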