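import Cfsg.Agent.J4Cent6.Tab
import Cfsg.Agent.J4Cent6.OrbData
import Cfsg.Agent.J4Cent82.Elem

/-!
Tables of the involution and of a basis of the elementary abelian group of order `2 ^ 11`.
-/

set_option autoImplicit false
set_option maxRecDepth 100000
set_option Elab.async false

namespace CfsgLib.J4Cent6

open Cfsg.Spor CfsgLib.CosetEnum CfsgLib.J4Rep112

/-- the word of the involution -/
def zW : List ℕ :=
  encWord enc iv ((J4.y * J4Cent82.wCent⁻¹ * J4.t * J4Cent82.wCent) ^ 3)

theorem zCent_eq : J4Cent82.zCent = gword gl zW := by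
  rw [zW, ← map_eq_gword enc iv (PresentedGroup.mk _) gl (fun a => (gl_enc a).symm)
    (fun a => by rw [iv, gl_iv, gl_enc]; rfl)]
  rfl

theorem zT_ok : tabOK zW Tab.zT = true := by decide +kernel

theorem isTab_z : IsTab J4Cent82.zCent Tab.zT := zCent_eq ▸ isTab_of_tabOK zT_ok

theorem zT_addOK : addOK Tab.zT = true := by
  have := zT_ok
  simp only [tabOK, Bool.and_eq_true] at this
  exact addOK_of_linOK this.1.2

/-- a conjugate of the involution -/
def eOf (w : List ℕ) : Cfsg.Spor.J4 := gword gl w * J4Cent82.zCent * (gword gl w)⁻¹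

/-- the table of one such conjugate -/
noncomputable def conjOK (w T : List ℕ) : Bool :=
  lettersOK w && lettersOK (winv w) && linOK T &&
    (List.range 112).all fun i =>
      Nat.beq (vm T (2 ^ i)) (act w (vm Tab.zT (act (winv w) (2 ^ i))))

theorem eT0_ok : conjOK (Tab.eW.getD 0 []) (Tab.eT.getD 0 []) = true := by decide +kernel

theorem eT1_ok : conjOK (Tab.eW.getD 1 []) (Tab.eT.getD 1 []) = true := by decide +kernel

theorem eT2_ok : conjOK (Tab.eW.getD 2 []) (Tab.eT.getD 2 []) = true := by decide +kernel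

theorem eT3_ok : conjOK (Tab.eW.getD 3 []) (Tab.eT.getD 3 []) = true := by decide +kernel

theorem eT4_ok : conjOK (Tab.eW.getD 4 []) (Tab.eT.getD 4 []) = true := by decide +kernel

theorem eT5_ok : conjOK (Tab.eW.getD 5 []) (Tab.eT.getD 5 []) = true := by decide +kernel

theorem eT6_ok : conjOK (Tab.eW.getD 6 []) (Tab.eT.getD 6 []) = true := by decide +kernel

theorem eT7_ok : conjOK (Tab.eW.getD 7 []) (Tab.eT.getD 7 []) = true := by decide +kernel

theorem eT8_ok : conjOK (Tab.eW.getD 8 []) (Tab.eT.getD 8 []) = true := by decide +kernel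

theorem eT9_ok : conjOK (Tab.eW.getD 9 []) (Tab.eT.getD 9 []) = true := by decide +kernel

theorem eT10_ok : conjOK (Tab.eW.getD 10 []) (Tab.eT.getD 10 []) = true := by decide +kernel

theorem eT_ok : ∀ i < 11, conjOK (Tab.eW.getD i []) (Tab.eT.getD i []) = true := by
  intro i hi
  interval_cases i
  exacts [eT0_ok, eT1_ok, eT2_ok, eT3_ok, eT4_ok, eT5_ok, eT6_ok, eT7_ok, eT8_ok, eT9_ok, eT10_ok]

theorem eT_tab : ∀ i < 11, addOK (Tab.eT.getD i []) = true ∧
    IsTab (eOf (Tab.eW.getD i [])) (Tab.eT.getD i []) := by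
  intro i hi
  have h := eT_ok i hi
  simp only [conjOK, Bool.and_eq_true, List.all_eq_true, List.mem_range] at h
  obtain ⟨⟨⟨hw, hw'⟩, hT⟩, hb⟩ := h
  refine ⟨addOK_of_linOK hT, fun v => ?_⟩
  rw [eOf, map_mul, map_mul, Equiv.Perm.mul_apply, Equiv.Perm.mul_apply, rep_gword hw, isTab_z,
    ← gword_winv, rep_gword hw']
  refine (agree_of_basis _
    (fun a => act (Tab.eW.getD i []) (vm Tab.zT (act (winv (Tab.eW.getD i [])) a)))
    (vm_xor _ (addOK_of_linOK hT))
    (fun a b => ?_) (fun j hj => Nat.eq_of_beq_eq_true (hb j hj)) v.2).symm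
  simp only [act_xor, vm_xor _ zT_addOK]

end CfsgLib.J4Cent6
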