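import Cfsg.Agent.J4Cent6.OrbTab
import Cfsg.Agent.J4Cent6.OrbComm
import Cfsg.Agent.J4Cent6.OrbData
import Cfsg.Agent.J4Cent6.Count
import Cfsg.Agent.J4Cent82.Elem

/-!
The orbit of 1771 conjugates of the involution in the elementary abelian group of order `2 ^ 11`,
given that the representation is faithful.
-/

set_option autoImplicit false
set_option maxRecDepth 100000
set_option Elab.async false

namespace CfsgLib.J4Cent6

open Cfsg.Spor CfsgLib.CosetEnum CfsgLib.J4Rep112

/-- the basis -/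
def eL : List Cfsg.Spor.J4 := Tab.eW.map eOf

theorem eL_length : eL.length = 11 := rfl

theorem eT_length : Tab.eT.length = 11 := rfl

theorem eL_get (i : ℕ) (hi : i < 11) :
    eL[i]'(eL_length ▸ hi) = eOf (Tab.eW.getD i []) := by
  simp only [eL, List.getElem_map]
  rw [List.getD_eq_getElem _ _ (show i < Tab.eW.length from hi)]

theorem eT_get (i : ℕ) (hi : i < 11) : Tab.eT[i]'(eT_length ▸ hi) = Tab.eT.getD i [] :=
  (List.getD_eq_getElem _ _ (eT_length ▸ hi)).symm

theorem eL_tab : List.Forall₂ IsTab eL Tab.eT :=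
  List.forall₂_iff_get.2 ⟨rfl, fun i h1 _ => by
    have hi : i < 11 := eL_length ▸ h1
    rw [List.get_eq_getElem, List.get_eq_getElem, eL_get i hi, eT_get i hi]
    exact (eT_tab i hi).2⟩

theorem eT_addOK : ∀ T ∈ Tab.eT, addOK T = true := fun T hT => by
  obtain ⟨i, hi, rfl⟩ := List.getElem_of_mem hT
  rw [eT_get i (eT_length ▸ hi)]
  exact (eT_tab i (eT_length ▸ hi)).1

/-- the product with a given number -/
def el (n : ℕ) : Cfsg.Spor.J4 := elL eL n

theorem rep_el (n : ℕ) (v : Vec) : (rep (el n) v : ℕ) = elv Tab.eT n v.1 := rep_elL eL_tab n v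

variable (hinj : Function.Injective rep)
include hinj

theorem eq_of_act {u w : Cfsg.Spor.J4} (h : ∀ v : Vec, (rep u v : ℕ) = (rep w v : ℕ)) : u = w :=
  hinj (Equiv.ext fun v => Subtype.ext (h v))

theorem eL_sq : ∀ e ∈ eL, e * e = 1 := by
  intro e he
  obtain ⟨i, hi, rfl⟩ := List.getElem_of_mem he
  have hi' : i < 11 := eL_length ▸ hi
  rw [eL_get i hi']
  obtain ⟨hT, hTab⟩ := eT_tab i hi'
  have h := ab_ok i hi'
  simp only [abRow, Bool.and_eq_true, List.all_eq_true, List.mem_range] at h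
  refine eq_of_act hinj fun v => ?_
  rw [map_mul, Equiv.Perm.mul_apply, hTab, hTab, map_one]
  exact agree_of_basis (fun a => vm _ (vm _ a)) (fun a => a)
    (fun a b => by simp only [vm_xor _ hT]) (fun a b => rfl)
    (fun j hj => Nat.eq_of_beq_eq_true (h.1 j hj)) v.2

theorem eL_comm : ∀ e ∈ eL, ∀ f ∈ eL, Commute e f := by
  have key : ∀ i j, i < j → j < 11 →
      Commute (eOf (Tab.eW.getD i [])) (eOf (Tab.eW.getD j [])) := by
    intro i j hij hj
    obtain ⟨hS, hSe⟩ := eT_tab i (hij.trans hj)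
    obtain ⟨hT, hTf⟩ := eT_tab j hj
    have h := ab_ok i (hij.trans hj)
    simp only [abRow, Bool.and_eq_true, List.all_eq_true, List.mem_range] at h
    have hm : Tab.eT.getD j [] ∈ Tab.eT.drop (i + 1) := by
      rw [← eT_get j hj]
      refine List.mem_iff_getElem.2 ⟨j - (i + 1), by rw [List.length_drop, eT_length]; omega, ?_⟩
      simp only [List.getElem_drop]
      congr 1
      omega
    refine eq_of_act hinj fun v => ?_
    rw [map_mul, map_mul, Equiv.Perm.mul_apply, Equiv.Perm.mul_apply, hSe, hTf, hTf, hSe]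
    exact agree_of_basis (fun a => vm _ (vm _ a)) (fun a => vm _ (vm _ a))
      (fun a b => by simp only [vm_xor _ hS, vm_xor _ hT])
      (fun a b => by simp only [vm_xor _ hS, vm_xor _ hT])
      (fun k hk => Nat.eq_of_beq_eq_true (h.2 _ hm k hk)) v.2
  intro e he f hf
  obtain ⟨i, hi, rfl⟩ := List.getElem_of_mem he
  obtain ⟨j, hj, rfl⟩ := List.getElem_of_mem hf
  have hi' : i < 11 := eL_length ▸ hi
  have hj' : j < 11 := eL_length ▸ hj
  rw [eL_get i hi', eL_get j hj']
  rcases lt_trichotomy i j with h | rfl | h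
  · exact key i j h hj'
  · exact Commute.refl _
  · exact (key j i h hi').symm

omit hinj

/-- one letter conjugates the basis by the columns -/
noncomputable def colsOK (c : ℕ) : List (List ℕ) → List ℕ → Bool
  | [], [] => true
  | T :: Ts, k :: ks => ((List.range 112).all fun i =>
      Nat.beq (act [c] (vm T (2 ^ i))) (elv Tab.eT k (act [c] (2 ^ i)))) && colsOK c Ts ks
  | _, _ => false

/-- the three letters -/
def lts : List ℕ := [0, 2, 3]

theorem cols0_ok : colsOK 0 Tab.eT (Tab.cols.getD 0 []) = true := by decide +kernel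

theorem cols1_ok : colsOK 2 Tab.eT (Tab.cols.getD 1 []) = true := by decide +kernel

theorem cols2_ok : colsOK 3 Tab.eT (Tab.cols.getD 2 []) = true := by decide +kernel

theorem cols_ok : ∀ k < 3, colsOK (lts.getD k 0) Tab.eT (Tab.cols.getD k []) = true := by
  intro k hk
  interval_cases k
  exacts [cols0_ok, cols1_ok, cols2_ok]

include hinj

theorem cols_spec {c : ℕ} (hc : c < 6) : ∀ {Es : List Cfsg.Spor.J4} {Ts : List (List ℕ)}
    {ks : List ℕ}, List.Forall₂ IsTab Es Ts → (∀ T ∈ Ts, addOK T = true) →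
    colsOK c Ts ks = true →
    List.Forall₂ (fun e k => gl c * e * (gl c)⁻¹ = el k) Es ks := by
  intro Es Ts ks h
  induction h generalizing ks with
  | nil =>
    intro _ hk
    cases ks with
    | nil => exact List.Forall₂.nil
    | cons a b => simp [colsOK] at hk
  | @cons e T Es Ts he _ ih =>
    intro hadd hk
    cases ks with
    | nil => simp [colsOK] at hk
    | cons k ks =>
      simp only [colsOK, Bool.and_eq_true, List.all_eq_true, List.mem_range] at hk
      refine List.Forall₂.cons ?_ (ih (fun S hS => hadd S (List.mem_cons_of_mem _ hS)) hk.2)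
      rw [mul_inv_eq_iff_eq_mul]
      refine eq_of_act hinj fun v => ?_
      have hl : lettersOK [c] = true := by simp [lettersOK, Nat.blt, hc]
      have hg : gl c = gword gl [c] := by simp [gword]
      rw [hg, map_mul, map_mul, Equiv.Perm.mul_apply, Equiv.Perm.mul_apply, rep_gword hl, he,
        rep_el, rep_gword hl]
      exact agree_of_basis (fun a => act [c] (vm T a)) (fun a => elv Tab.eT k (act [c] a))
        (fun a b => by simp only [vm_xor T (hadd T List.mem_cons_self), act_xor])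
        (fun a b => by simp only [act_xor, elv_xor eT_addOK])
        (fun i hi => Nat.eq_of_beq_eq_true (hk.1 i hi)) v.2

theorem conj_el {k : ℕ} (hk : k < 3) (n : ℕ) :
    gl (lts.getD k 0) * el n * (gl (lts.getD k 0))⁻¹ = el (linL (Tab.cols.getD k []) n) := by
  have h := cols_ok k hk
  have hc : lts.getD k 0 < 6 := by interval_cases k <;> decide
  exact conj_elL (eL_comm hinj) (eL_sq hinj) (cols_spec hinj hc eL_tab eT_addOK h) n

omit hinj

/-- the orbit as numbers -/
def orbL : List ℕ := 1 :: Tab.steps.map fun s => s.1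

theorem el_one : el 1 = J4Cent82.zCent := by
  show elL (eOf [] :: (Tab.eW.tail.map eOf)) 1 = _
  rw [elL, if_pos (by norm_num), show (1 : ℕ) / 2 = 0 from rfl, elL_zero, mul_one, eOf]
  simp [gword]

/-- each step leaves from a number seen before -/
def stepsOK : ℕ → List (ℕ × ℕ × ℕ) → Option ℕ
  | m, [] => some m
  | m, s :: ss => if Nat.blt s.1 2048 && Nat.blt s.2.2 3 && Nat.testBit m s.2.1 &&
      Nat.beq (linL (Tab.cols.getD s.2.2 []) s.2.1) s.1
    then stepsOK (Nat.lor m (Nat.shiftLeft 1 s.1)) ss else none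

theorem steps_ok : (match stepsOK 2 Tab.steps with
    | some m => Nat.beq m Tab.oMask
    | none => false) = true := by decide +kernel

theorem testBit_lor_shift (m p q : ℕ) :
    Nat.testBit (Nat.lor m (Nat.shiftLeft 1 p)) q = true ↔ Nat.testBit m q = true ∨ q = p := by
  change Nat.testBit (m ||| (1 <<< p)) q = true ↔ _
  rw [Nat.testBit_or, Bool.or_eq_true, Nat.one_shiftLeft, Nat.testBit_two_pow, decide_eq_true_eq,
    eq_comm (a := p)]

theorem stepsOK_spec {P : ℕ → Prop} (hstep : ∀ p k, k < 3 → P p →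
    P (linL (Tab.cols.getD k []) p)) : ∀ (ss : List (ℕ × ℕ × ℕ)) (m m' : ℕ),
    stepsOK m ss = some m' → (∀ n, m.testBit n = true → P n) →
    (∀ n, m'.testBit n = true ↔ m.testBit n = true ∨ n ∈ ss.map fun s => s.1) ∧
      (∀ n ∈ ss.map (fun s => s.1), P n ∧ n < 2048)
  | [], m, m', h, _ => by
    simp only [stepsOK, Option.some.injEq] at h
    subst h
    simp
  | s :: ss, m, m', h, hP => by
    simp only [stepsOK] at h
    split at h
    swap; · cases h
    next hs =>
    simp only [Bool.and_eq_true, Nat.blt, Nat.ble_eq] at hs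
    obtain ⟨⟨⟨h1, h2⟩, h3⟩, h4⟩ := hs
    have hn : P s.1 := Nat.eq_of_beq_eq_true h4 ▸ hstep _ _ h2 (hP _ h3)
    obtain ⟨i1, i2⟩ := stepsOK_spec hstep ss _ m' h fun n hn' =>
      ((testBit_lor_shift m s.1 n).1 hn').elim (hP n) fun e => e ▸ hn
    refine ⟨fun n => ?_, fun n hn' => ?_⟩
    · rw [i1, testBit_lor_shift, List.map_cons, List.mem_cons, or_assoc]
    · rw [List.map_cons, List.mem_cons] at hn'
      rcases hn' with rfl | hn'
      · exact ⟨hn, h1⟩
      · exact i2 n hn'

theorem orb_induction {P : ℕ → Prop} (h1 : P 1) (hstep : ∀ p k, k < 3 → P p →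
    P (linL (Tab.cols.getD k []) p)) : ∀ n ∈ orbL, P n ∧ n < 2048 := by
  have h := steps_ok
  split at h
  swap; · simp at h
  next m hm =>
  have hone : ∀ n, (2 : ℕ).testBit n = true → n = 1 := fun n hn => by
    rw [show (2 : ℕ) = 2 ^ 1 from rfl, Nat.testBit_two_pow, decide_eq_true_eq] at hn
    exact hn.symm
  obtain ⟨-, i2⟩ := stepsOK_spec hstep Tab.steps 2 m hm fun n hn => (hone n hn) ▸ h1
  intro n hn
  rcases List.mem_cons.1 hn with rfl | hn
  · exact ⟨h1, by norm_num⟩
  · exact i2 n hn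

theorem mem_orbL_iff (n : ℕ) : n ∈ orbL ↔ Tab.oMask.testBit n = true := by
  have h := steps_ok
  split at h
  swap; · simp at h
  next m hm =>
  obtain ⟨i1, -⟩ := stepsOK_spec (P := fun _ => True) (fun _ _ _ _ => trivial) Tab.steps 2 m hm
    fun _ _ => trivial
  rw [← Nat.eq_of_beq_eq_true h, i1, orbL, List.mem_cons]
  refine or_congr ?_ Iff.rfl
  rw [show (2 : ℕ) = 2 ^ 1 from rfl, Nat.testBit_two_pow, decide_eq_true_eq, eq_comm]

/-- the orbit is closed under the three letters -/
def closedOK : Bool :=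
  (List.range 3).all fun k => orbL.all fun n =>
    Nat.testBit Tab.oMask (linL (Tab.cols.getD k []) n)

theorem closed_ok : closedOK = true := by decide +kernel

/-- search -/
def idx : Tab.Tree → ℕ → Option ℕ
  | .leaf, _ => none
  | .node key i l r, v => bif Nat.blt v key then idx l v else
      bif Nat.beq v key then some i else idx r v

/-- the images of one vector are distinct on the orbit -/
noncomputable def fpOK : ℕ → List ℕ → Bool
  | _, [] => true
  | i, n :: l => (match idx Tab.fpTree (elv Tab.eT n 1) with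
      | some j => Nat.beq j i
      | none => false) && fpOK (i + 1) l

theorem fp_ok : fpOK 0 orbL = true := by decide +kernel

theorem fpOK_spec : ∀ (l : List ℕ) (i : ℕ), fpOK i l = true →
    l.map (fun n => idx Tab.fpTree (elv Tab.eT n 1)) = (List.range' i l.length).map some
  | [], i, _ => rfl
  | n :: l, i, h => by
    simp only [fpOK, Bool.and_eq_true] at h
    obtain ⟨h1, h2⟩ := h
    split at h1
    swap; · simp at h1
    next j hj =>
    rw [List.map_cons, List.length_cons, List.range'_succ, List.map_cons, fpOK_spec l _ h2, hj,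
      Nat.eq_of_beq_eq_true h1]

/-- one vector -/
def vOne : Vec := ⟨1, by norm_num⟩

theorem orb_nodup : (orbL.map el).Nodup := by
  have h := fpOK_spec orbL 0 fp_ok
  have h2 : (orbL.map fun n => idx Tab.fpTree (elv Tab.eT n 1)).Nodup := by
    rw [h]
    exact List.Nodup.map (Option.some_injective _) (List.nodup_range' (s := 0))
  refine List.Nodup.of_map (fun u => idx Tab.fpTree (rep u vOne).1) ?_
  rw [List.map_map]
  have e : (fun u => idx Tab.fpTree (rep u vOne).1) ∘ el =
      fun n => idx Tab.fpTree (elv Tab.eT n 1) := by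
    funext n
    simp only [Function.comp_apply, rep_el]
    rfl
  rw [e]
  exact h2

open Classical in
/-- the orbit -/
noncomputable def orb : Finset Cfsg.Spor.J4 := (orbL.map el).toFinset

theorem card_orb : orb.card = 1771 := by
  classical
  rw [orb, List.toFinset_card_of_nodup orb_nodup, List.length_map]
  rfl

theorem mem_orb {u : Cfsg.Spor.J4} : u ∈ orb ↔ ∃ n ∈ orbL, el n = u := by
  classical
  simp [orb]

/-- the subgroup on the first two generators -/
def Hsub : Subgroup Cfsg.Spor.J4 := Subgroup.closure {gen .x, gen .y}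

/-- the subgroup `2¹¹ : M₂₄` -/
def Msub : Subgroup Cfsg.Spor.J4 :=
  Subgroup.closure {gen .x, gen .y, J4Cent82.zCent}

theorem gl_mem_Hsub : ∀ k, k < 3 → gl (lts.getD k 0) ∈ Hsub := by
  intro k hk
  have hy : gen .y ∈ Hsub := Subgroup.subset_closure (Or.inr rfl)
  interval_cases k
  · exact gl_enc .x ▸ Subgroup.subset_closure (Or.inl rfl)
  · exact gl_enc .y ▸ hy
  · show gl (2 ^^^ 1) ∈ Hsub
    rw [gl_iv, show gl 2 = gen .y from gl_enc .y]
    exact Hsub.inv_mem hy

include hinj

theorem orb_conj {u : Cfsg.Spor.J4} (hu : u ∈ orb) :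
    ∃ h ∈ Hsub, h * J4Cent82.zCent * h⁻¹ = u := by
  obtain ⟨n, hn, rfl⟩ := mem_orb.1 hu
  refine (orb_induction (P := fun n => ∃ h ∈ Hsub, h * J4Cent82.zCent * h⁻¹ = el n)
    ⟨1, one_mem _, by simp [el_one]⟩ ?_ n hn).1
  rintro p k hk ⟨h, hh, he⟩
  refine ⟨gl (lts.getD k 0) * h, mul_mem (gl_mem_Hsub k hk) hh, ?_⟩
  rw [← conj_el hinj hk, ← he]
  group

theorem orb_step {k : ℕ} (hk : k < 3) {u : Cfsg.Spor.J4} (hu : u ∈ orb) :
    gl (lts.getD k 0) * u * (gl (lts.getD k 0))⁻¹ ∈ orb := by
  obtain ⟨n, hn, rfl⟩ := mem_orb.1 hu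
  rw [conj_el hinj hk]
  have := List.all_eq_true.1 (List.all_eq_true.1 closed_ok k (List.mem_range.2 hk)) n hn
  exact mem_orb.2 ⟨_, (mem_orbL_iff _).2 this, rfl⟩

theorem orb_invariant : ∀ m ∈ Msub, ∀ u ∈ orb, m * u * m⁻¹ ∈ orb := by
  have hgen : ∀ g ∈ ({gen .x, gen .y, J4Cent82.zCent} : Set Cfsg.Spor.J4),
      (∀ u ∈ orb, g * u * g⁻¹ ∈ orb) ∧ ∀ u ∈ orb, g⁻¹ * u * g⁻¹⁻¹ ∈ orb := by
    have hx : ∀ u ∈ orb, gen .x * u * (gen .x)⁻¹ ∈ orb := fun u hu => by
      have := orb_step hinj (k := 0) (by norm_num) hu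
      rwa [show gl (lts.getD 0 0) = gen .x from gl_enc .x] at this
    have hxx : (gen .x)⁻¹ = gen .x :=
      inv_eq_of_mul_eq_one_right (by
        have := PresentedGroup.one_of_mem (rels := coxRelators J4.edges ∪ {r | r ∈ J4.extra})
          (x := J4.x ^ 2) (Or.inr (List.mem_cons_self))
        rw [map_pow, sq] at this
        exact this)
    rintro g (rfl | rfl | rfl)
    · exact ⟨hx, hxx.symm ▸ hx⟩
    · refine ⟨fun u hu => ?_, fun u hu => ?_⟩
      · have := orb_step hinj (k := 1) (by norm_num) hu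
        rwa [show gl (lts.getD 1 0) = gen .y from gl_enc .y] at this
      · have := orb_step hinj (k := 2) (by norm_num) hu
        rwa [show gl (lts.getD 2 0) = (gen .y)⁻¹ from by
          show gl (2 ^^^ 1) = _
          rw [gl_iv, show gl 2 = gen .y from gl_enc .y]] at this
    · have hz : ∀ u ∈ orb, Commute J4Cent82.zCent u := fun u hu => by
        obtain ⟨n, -, rfl⟩ := mem_orb.1 hu
        rw [← el_one]
        show el 1 * el n = el n * el 1
        rw [el, el, ← elL_xor (eL_comm hinj) (eL_sq hinj),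
          ← elL_xor (eL_comm hinj) (eL_sq hinj), Nat.xor_comm]
      refine ⟨fun u hu => ?_, fun u hu => ?_⟩
      · rwa [(hz u hu).eq, mul_inv_cancel_right]
      · rwa [inv_inv, mul_assoc, ← (hz u hu).eq, inv_mul_cancel_left]
  intro m hm
  refine (show (∀ u ∈ orb, m * u * m⁻¹ ∈ orb) ∧ ∀ u ∈ orb, m⁻¹ * u * m⁻¹⁻¹ ∈ orb from ?_).1
  refine Subgroup.closure_induction (p := fun g _ =>
    (∀ u ∈ orb, g * u * g⁻¹ ∈ orb) ∧ ∀ u ∈ orb, g⁻¹ * u * g⁻¹⁻¹ ∈ orb)
    (fun g hg => hgen g hg) (by simp) ?_ ?_ hm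
  · rintro a b _ _ ⟨ha, ha'⟩ ⟨hb, hb'⟩
    refine ⟨fun u hu => ?_, fun u hu => ?_⟩
    · have := ha _ (hb u hu); simpa [mul_assoc] using this
    · have := hb' _ (ha' u hu); simpa [mul_assoc] using this
  · rintro a _ ⟨ha, ha'⟩
    exact ⟨ha', by simpa using ha⟩

end CfsgLib.J4Cent6
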