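import Cfsg.Agent.J4Rep112.Hom
import Cfsg.Agent.J4M24.Iso

/-!
Group elements of the presented fourth Janko group against tables of their matrices.
-/

set_option autoImplicit false
set_option maxRecDepth 100000

namespace CfsgLib.J4Cent6

open Cfsg.Spor CfsgLib.CosetEnum CfsgLib.J4Rep112 CfsgLib.J4M24

/-- the image of a generator -/
def gen (a : J4.Gen) : Cfsg.Spor.J4 := PresentedGroup.of a

/-- values of the six letters -/
def gl : ℕ → Cfsg.Spor.J4 :=
  signedVal fun q => if q = 0 then gen .x else if q = 1 then gen .y else if q = 2 then gen .t else 1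

theorem gl_iv (c : ℕ) : gl (c ^^^ 1) = (gl c)⁻¹ := signedVal_iv _ c

theorem gl_enc (a : J4.Gen) : gl (enc a) = gen a := by
  cases a <;> simp [gl, signedVal, enc]

theorem rep_gl {c : ℕ} (hc : c < 6) : rep (gl c) = val c := by
  have h : ∀ a : J4.Gen, rep (gen a) = val (enc a) := fun a => PresentedGroup.toGroup.of _
  rcases (by omega : c = 0 ∨ c = 1 ∨ c = 2 ∨ c = 3 ∨ c = 4 ∨ c = 5) with
    rfl | rfl | rfl | rfl | rfl | rfl
  · simpa [gl, signedVal, enc] using h .x
  · rw [show (1 : ℕ) = 0 ^^^ 1 from rfl, gl_iv, map_inv, val_iv (by norm_num)]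
    simpa [gl, signedVal, enc] using h .x
  · simpa [gl, signedVal, enc] using h .y
  · rw [show (3 : ℕ) = 2 ^^^ 1 from rfl, gl_iv, map_inv, val_iv (by norm_num)]
    simpa [gl, signedVal, enc] using h .y
  · simpa [gl, signedVal, enc] using h .t
  · rw [show (5 : ℕ) = 4 ^^^ 1 from rfl, gl_iv, map_inv, val_iv (by norm_num)]
    simpa [gl, signedVal, enc] using h .t

/-- all letters of a word are below six -/
def lettersOK (w : List ℕ) : Bool := w.all fun c => c.blt 6

/-- the formal inverse of a word -/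
def winv (w : List ℕ) : List ℕ := w.reverse.map fun c => c ^^^ 1

theorem rep_gword {w : List ℕ} (hw : lettersOK w = true) (v : Vec) :
    (rep (gword gl w) v : ℕ) = act w v.1 := by
  simp only [lettersOK, List.all_eq_true, Nat.blt, Nat.ble_eq] at hw
  rw [gword_map, gword_congr _ val fun c hc => rep_gl (hw c hc)]
  exact gword_val w hw v

theorem gword_app {G : Type*} [Group G] (g : ℕ → G) (v w : List ℕ) :
    gword g (v ++ w) = gword g v * gword g w := by simp [gword]

theorem gword_winv (w : List ℕ) : gword gl (winv w) = (gword gl w)⁻¹ :=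
  gword_inverse gl (fun c => c ^^^ 1) gl_iv w

/-- the table `T` gives the matrix of `u` -/
def IsTab (u : Cfsg.Spor.J4) (T : List ℕ) : Prop := ∀ v : Vec, (rep u v : ℕ) = vm T v.1

theorem addOK_addv {T : List ℕ} (h : addOK T = true) (a b : ℕ) :
    vm T (a ^^^ b) = vm T a ^^^ vm T b := vm_xor T h a b

theorem agree_of_basis (f g : ℕ → ℕ) (hf : ∀ a b, f (a ^^^ b) = f a ^^^ f b)
    (hg : ∀ a b, g (a ^^^ b) = g a ^^^ g b) (h : ∀ i < 112, f (2 ^ i) = g (2 ^ i))
    {v : ℕ} (hv : v < 2 ^ 112) : f v = g v := by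
  have key := eq_self_of_basis (fun a => (f a ^^^ g a) ^^^ a) (fun a b => by
      simp only [hf, hg]
      ac_rfl) 112 (fun i hi => by simp only [h i hi, Nat.xor_self, Nat.zero_xor]) v hv
  have h2 : f v ^^^ g v = 0 := by
    have := congrArg (fun a => a ^^^ v) key
    simpa [Nat.xor_assoc] using this
  exact Nat.xor_eq_zero_iff.1 h2

/-- product of the elements of a list chosen by the bits of a number -/
def elL : List Cfsg.Spor.J4 → ℕ → Cfsg.Spor.J4
  | [], _ => 1
  | e :: es, n => (if n % 2 = 1 then e else 1) * elL es (n / 2)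

/-- the same product acting on a bit mask -/
noncomputable def elv : List (List ℕ) → ℕ → ℕ → ℕ
  | [], _, v => v
  | T :: Ts, n, v => bif Nat.beq (n % 2) 1 then vm T (elv Ts (n / 2) v) else elv Ts (n / 2) v

/-- xor of the numbers chosen by the bits -/
def linL : List ℕ → ℕ → ℕ
  | [], _ => 0
  | c :: cs, n => (bif Nat.beq (n % 2) 1 then c else 0) ^^^ linL cs (n / 2)

theorem beq_one (n : ℕ) : Nat.beq (n % 2) 1 = decide (n % 2 = 1) := by
  rcases Nat.mod_two_eq_zero_or_one n with h | h <;> rw [h] <;> rfl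

theorem rep_elL {Es : List Cfsg.Spor.J4} {Ts : List (List ℕ)}
    (h : List.Forall₂ IsTab Es Ts) : ∀ (n : ℕ) (v : Vec), (rep (elL Es n) v : ℕ) = elv Ts n v.1 := by
  induction h with
  | nil => intro n v; simp [elL, elv]
  | @cons e T Es Ts he _ ih =>
    intro n v
    rw [elL, elv, beq_one]
    by_cases hn : n % 2 = 1
    · rw [if_pos hn, decide_eq_true hn, map_mul, Equiv.Perm.mul_apply, he, ih]
      rfl
    · rw [if_neg hn, decide_eq_false hn, one_mul]
      exact ih _ v

theorem elv_xor {Ts : List (List ℕ)} (h : ∀ T ∈ Ts, addOK T = true) : ∀ (n a b : ℕ),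
    elv Ts n (a ^^^ b) = elv Ts n a ^^^ elv Ts n b := by
  induction Ts with
  | nil => intro n a b; rfl
  | cons T Ts ih =>
    intro n a b
    simp only [elv, ih (fun S hS => h S (List.mem_cons_of_mem _ hS))]
    cases Nat.beq (n % 2) 1
    · rfl
    · exact vm_xor T (h T List.mem_cons_self) _ _

theorem commute_elL {e : Cfsg.Spor.J4} : ∀ {Es : List Cfsg.Spor.J4}, (∀ f ∈ Es, Commute e f) →
    ∀ n, Commute e (elL Es n)
  | [], _, n => Commute.one_right e
  | f :: Es, h, n => by
    rw [elL]
    refine Commute.mul_right ?_ (commute_elL (fun g hg => h g (List.mem_cons_of_mem _ hg)) _)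
    split_ifs
    · exact h f List.mem_cons_self
    · exact Commute.one_right e

theorem elL_zero : ∀ Es : List Cfsg.Spor.J4, elL Es 0 = 1
  | [] => rfl
  | e :: Es => by rw [elL, if_neg (by norm_num), one_mul]; exact elL_zero Es

theorem elL_xor : ∀ {Es : List Cfsg.Spor.J4}, (∀ e ∈ Es, ∀ f ∈ Es, Commute e f) →
    (∀ e ∈ Es, e * e = 1) → ∀ a b, elL Es (a ^^^ b) = elL Es a * elL Es b
  | [], _, _, a, b => (one_mul _).symm
  | e :: Es, hc, hs, a, b => by
    have hx : Commute e (elL Es (a / 2)) :=
      commute_elL (fun f hf => hc e List.mem_cons_self f (List.mem_cons_of_mem _ hf)) _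
    have ih := elL_xor (Es := Es)
      (fun x hx y hy => hc x (List.mem_cons_of_mem _ hx) y (List.mem_cons_of_mem _ hy))
      (fun x hx => hs x (List.mem_cons_of_mem _ hx)) (a / 2) (b / 2)
    have hd : (a ^^^ b) / 2 = a / 2 ^^^ b / 2 := Nat.xor_div_two_pow (n := 1)
    have hm : (a ^^^ b) % 2 = a % 2 ^^^ b % 2 := Nat.xor_mod_two_pow (n := 1)
    have he := hs e List.mem_cons_self
    simp only [elL, hd, hm, ih]
    rcases Nat.mod_two_eq_zero_or_one a with ha | ha <;>
      rcases Nat.mod_two_eq_zero_or_one b with hb | hb <;> simp only [ha, hb]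
    · simp
    · simp [← mul_assoc, hx.eq]
    · simp [mul_assoc]
    · simp only [Nat.xor_self, zero_ne_one, ↓reduceIte, one_mul]
      rw [mul_assoc e, ← mul_assoc (elL Es (a / 2)) e, ← hx.eq, mul_assoc e, ← mul_assoc e e, he,
        one_mul]

theorem conj_elL {c : Cfsg.Spor.J4} {E : List Cfsg.Spor.J4}
    (hc : ∀ e ∈ E, ∀ f ∈ E, Commute e f) (hs : ∀ e ∈ E, e * e = 1) {Es : List Cfsg.Spor.J4}
    {cs : List ℕ} (h : List.Forall₂ (fun e k => c * e * c⁻¹ = elL E k) Es cs) :
    ∀ n, c * elL Es n * c⁻¹ = elL E (linL cs n) := by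
  induction h with
  | nil => intro n; simp [elL, linL, elL_zero]
  | @cons e k Es cs he _ ih =>
    intro n
    rw [elL, linL, elL_xor hc hs, ← ih, beq_one]
    by_cases hn : n % 2 = 1
    · rw [if_pos hn, decide_eq_true hn, cond_true, ← he]; group
    · rw [if_neg hn, decide_eq_false hn, cond_false, elL_zero]; group

theorem linL_xor : ∀ (cs : List ℕ) (a b : ℕ), linL cs (a ^^^ b) = linL cs a ^^^ linL cs b
  | [], _, _ => by simp [linL]
  | c :: cs, a, b => by
    have hd : (a ^^^ b) / 2 = a / 2 ^^^ b / 2 := Nat.xor_div_two_pow (n := 1)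
    have hm : (a ^^^ b) % 2 = a % 2 ^^^ b % 2 := Nat.xor_mod_two_pow (n := 1)
    have h01 : Nat.beq 0 1 = false := rfl
    have h11 : Nat.beq 1 1 = true := rfl
    simp only [linL, hd, hm, linL_xor cs]
    rcases Nat.mod_two_eq_zero_or_one a with ha | ha <;>
      rcases Nat.mod_two_eq_zero_or_one b with hb | hb <;>
      simp only [ha, hb, Nat.xor_self, Nat.zero_xor, Nat.xor_zero, h01, h11, cond_true, cond_false]
    · ac_rfl
    · ac_rfl
    · rw [Nat.xor_assoc c, ← Nat.xor_assoc (linL cs (a / 2)) c, Nat.xor_comm (linL cs (a / 2)) c,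
        Nat.xor_assoc c, ← Nat.xor_assoc c c, Nat.xor_self, Nat.zero_xor]

/-- each group of rows is given by its four basis rows -/
noncomputable def linOK (M : List ℕ) : Bool :=
  M.all fun T => (List.range 16).all fun a =>
    Nat.beq (entry T a) (linL [entry T 1, entry T 2, entry T 4, entry T 8] a)

theorem addOK_of_linOK {M : List ℕ} (h : linOK M = true) : addOK M = true := by
  simp only [linOK, addOK, List.all_eq_true, List.mem_range] at h ⊢
  intro T hT a ha b hb
  rw [Nat.eq_of_beq_eq_true (h T hT a ha), Nat.eq_of_beq_eq_true (h T hT b hb),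
    Nat.eq_of_beq_eq_true (h T hT (a ^^^ b) (Nat.xor_lt_two_pow (n := 4) ha hb)), linL_xor]
  exact Nat.beq_refl _

/-- the table agrees with a word on the basis -/
noncomputable def tabOK (w T : List ℕ) : Bool :=
  lettersOK w && linOK T && (List.range 112).all fun i => Nat.beq (vm T (2 ^ i)) (act w (2 ^ i))

theorem isTab_of_tabOK {w T : List ℕ} (h : tabOK w T = true) : IsTab (gword gl w) T := by
  simp only [tabOK, Bool.and_eq_true, List.all_eq_true, List.mem_range] at h
  intro v
  rw [rep_gword h.1.1]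
  exact (agree_of_basis _ _ (vm_xor T (addOK_of_linOK h.1.2)) (act_xor w)
    (fun i hi => Nat.eq_of_beq_eq_true (h.2 i hi)) v.2).symm

/-- all products applied to one bit mask, in the order of their numbers -/
noncomputable def dblL : List (List ℕ) → ℕ → List ℕ
  | [], v => [v]
  | T :: Ts, v => (dblL Ts v).flatMap fun x => [x, vm T x]

theorem range_double : ∀ n, List.range (2 * n) =
    (List.range n).flatMap fun m => [2 * m, 2 * m + 1]
  | 0 => rfl
  | n + 1 => by
    rw [show 2 * (n + 1) = 2 * n + 1 + 1 from by ring, List.range_succ, List.range_succ,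
      range_double n, List.range_succ, List.flatMap_append]
    simp

theorem dblL_eq : ∀ (Ts : List (List ℕ)) (v : ℕ),
    dblL Ts v = (List.range (2 ^ Ts.length)).map fun n => elv Ts n v
  | [], v => rfl
  | T :: Ts, v => by
    rw [dblL, dblL_eq Ts v, List.length_cons, pow_succ', range_double, List.map_flatMap,
      List.flatMap_map]
    congr 1
    funext m
    have h0 : 2 * m % 2 = 0 := by omega
    have h1 : (2 * m + 1) % 2 = 1 := by omega
    have h2 : (2 * m + 1) / 2 = m := by omega
    simp [elv, beq_one, h0, h1, h2]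

end CfsgLib.J4Cent6
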